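import Cfsg.Agent.Lib.H96.FrDef

set_option autoImplicit false
set_option linter.unusedSectionVars false

/-!
# Frame stabilisers: elements normalising the elements supported on `R` (FRAMES, P1b)
-/

namespace H83.FrNorm

open Matrix H96.Fr

variable {ι F : Type*} [Fintype ι] [DecidableEq ι] [Field F] {K : Subgroup ((ι → F) ≃ₗ[F] (ι → F))}

theorem ext_e {f f' : (ι → F) ≃ₗ[F] (ι → F)} (h : ∀ i, f (e i) = f' (e i)) : f = f' := by
  have h1 : (f : (ι → F) →ₗ[F] (ι → F)) = (f' : (ι → F) →ₗ[F] (ι → F)) := by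
    apply (Pi.basisFun F ι).ext
    intro i
    rw [Pi.basisFun_apply]
    exact h i
  exact LinearEquiv.toLinearMap_injective h1

theorem e_self (i : ι) : (e i : ι → F) i = 1 := by simp [e]

theorem e_ne {i j : ι} (h : j ≠ i) : (e i : ι → F) j = 0 := by simp [e, h]

theorem eq_of_pm {i j : ι} (h : (e i : ι → F) = e j ∨ (e i : ι → F) = - e j) : i = j := by
  by_contra hne
  have h1 := e_self (F := F) i
  rcases h with h | h
  · rw [h, e_ne hne] at h1
    exact zero_ne_one h1
  · rw [h, Pi.neg_apply, e_ne hne, neg_zero] at h1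
    exact zero_ne_one h1

theorem sg_e (a b i : ι) : sg a b (e i : ι → F) = if i = a ∨ i = b then - e i else e i := by
  funext k
  rw [sg_apply]
  by_cases hk : k = i
  · subst hk
    by_cases h : k = a ∨ k = b
    · rw [if_pos h, if_pos h, Pi.neg_apply]
    · rw [if_neg h, if_neg h]
  · by_cases h : i = a ∨ i = b <;> by_cases h' : k = a ∨ k = b <;> simp [h, h', e_ne hk]

theorem sg_comm (a b : ι) : (sg a b : (ι → F) ≃ₗ[F] (ι → F)) = sg b a := by
  apply LinearEquiv.ext
  intro x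
  funext k
  rw [sg_apply, sg_apply]
  exact if_congr or_comm rfl rfl

theorem sg_inv (a b : ι) : (sg a b : (ι → F) ≃ₗ[F] (ι → F))⁻¹ = sg a b := by
  rw [inv_eq_iff_mul_eq_one]
  apply LinearEquiv.ext
  intro x
  exact sgm_sgm a b x

theorem sg_mul {u v w : ι} (h1 : u ≠ v) (h2 : u ≠ w) (h3 : v ≠ w) :
    (sg u v * sg u w : (ι → F) ≃ₗ[F] (ι → F)) = sg v w := by
  apply LinearEquiv.ext
  intro x
  funext k
  change sg u v (sg u w x) k = sg v w x k
  rw [sg_apply, sg_apply, sg_apply]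
  by_cases a1 : k = u
  · subst a1; simp [h1, h2]
  · by_cases a2 : k = v
    · subst a2; simp [Ne.symm h1, h3]
    · by_cases a3 : k = w
      · subst a3; simp [a1, a2]
      · simp [a1, a2, a3]

theorem sg_sg (a b c d : ι) : (sg a b * sg c d : (ι → F) ≃ₗ[F] (ι → F)) = sg c d * sg a b := by
  apply LinearEquiv.ext
  intro x
  funext k
  change sg a b (sg c d x) k = sg c d (sg a b x) k
  simp only [sg_apply]
  by_cases h : k = a ∨ k = b <;> by_cases h' : k = c ∨ k = d <;> simp [h, h']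

/-- the permutation of a monomial element -/
def Pr (x : (ι → F) ≃ₗ[F] (ι → F)) (π : Equiv.Perm ι) : Prop := ∀ i, x (e i) = e (π i) ∨ x (e i) = - e (π i)

theorem exists_pr {x : (ι → F) ≃ₗ[F] (ι → F)} (hx : Mon x) : ∃ π : Equiv.Perm ι, Pr x π := by
  choose f hf using hx
  have hinj : Function.Injective f := by
    intro i j hij
    have h1 := hf i
    have h2 := hf j
    rw [hij] at h1
    apply eq_of_pm (F := F)
    have h3 : x (e i) = x (e j) ∨ x (e i) = - x (e j) := by
      rcases h1 with h1 | h1 <;> rcases h2 with h2 | h2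
      · left; rw [h1, h2]
      · right; rw [h1, h2, neg_neg]
      · right; rw [h1, h2]
      · left; rw [h1, h2]
    rcases h3 with h3 | h3
    · left; exact x.injective h3
    · right
      apply x.injective
      rw [h3, map_neg]
  exact ⟨Equiv.ofBijective f (Finite.injective_iff_bijective.1 hinj), hf⟩

theorem Pr.conj {x : (ι → F) ≃ₗ[F] (ι → F)} {π : Equiv.Perm ι} (h : Pr x π) (a b : ι) :
    x * sg a b * x⁻¹ = sg (π a) (π b) := by
  rw [mul_inv_eq_iff_eq_mul]
  apply ext_e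
  intro i
  change x (sg a b (e i)) = sg (π a) (π b) (x (e i))
  rw [sg_e]
  have h1 : sg (π a) (π b) (x (e i)) = if i = a ∨ i = b then - x (e i) else x (e i) := by
    have h2 := sg_e (F := F) (π a) (π b) (π i)
    simp only [EmbeddingLike.apply_eq_iff_eq] at h2
    rcases h i with h3 | h3
    · rw [h3, h2]
    · rw [h3, map_neg, h2]
      split_ifs <;> simp
  rw [h1]
  split_ifs
  · rw [map_neg]
  · rfl

theorem Pr.fix {x : (ι → F) ≃ₗ[F] (ι → F)} {π : Equiv.Perm ι} (h : Pr x π) {R : Finset ι} (hs : Sup x R) {i : ι}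
    (hi : i ∉ R) : π i = i := by
  have h1 := hs i hi
  apply Eq.symm
  apply eq_of_pm (F := F)
  rcases h i with h2 | h2
  · left; rw [← h2, h1]
  · right; rw [← h2, h1]

theorem Pr.mem {x : (ι → F) ≃ₗ[F] (ι → F)} {π : Equiv.Perm ι} (h : Pr x π) {R : Finset ι} (hs : Sup x R) {i : ι}
    (hi : i ∈ R) : π i ∈ R := by
  by_contra hn
  have h1 := h.fix hs hn
  have h2 := π.injective h1
  apply hn
  rw [h2]; exact hi

theorem dia_form {y : (ι → F) ≃ₗ[F] (ι → F)} (h : Dia y) : ∃ c : ι → F, (∀ i, c i = 1 ∨ c i = -1) ∧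
    (∀ i, y (e i) = c i • e i) ∧ ∀ v i, y v i = c i * v i := by
  have h0 : ∀ i, ∃ c : F, (c = 1 ∨ c = -1) ∧ y (e i) = c • e i := by
    intro i
    rcases h i with h1 | h1
    · exact ⟨1, Or.inl rfl, by rw [h1, one_smul]⟩
    · exact ⟨-1, Or.inr rfl, by rw [h1, neg_one_smul]⟩
  choose c hc1 hc2 using h0
  refine ⟨c, hc1, hc2, ?_⟩
  intro v i
  let L : (ι → F) →ₗ[F] (ι → F) := { toFun := fun v i => c i * v i, map_add' := fun v w => by
                                        funext i; simp [mul_add]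
                                     map_smul' := fun a v => by
                                        funext i; simp [mul_left_comm] }
  have h1 : (y : (ι → F) →ₗ[F] (ι → F)) = L := by
    apply (Pi.basisFun F ι).ext
    intro j
    rw [Pi.basisFun_apply]
    change y (e j) = L (e j)
    rw [hc2]
    funext k
    change c j • (e j : ι → F) k = c k * (e j : ι → F) k
    by_cases hk : k = j
    · subst hk; rfl
    · rw [e_ne hk]; simp
  have h2 := congrArg (fun L : (ι → F) →ₗ[F] (ι → F) => L v i) h1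
  exact h2

theorem dia_comm {y y' : (ι → F) ≃ₗ[F] (ι → F)} (h : Dia y) (h' : Dia y') : y * y' = y' * y := by
  obtain ⟨c, -, -, hc⟩ := dia_form h
  obtain ⟨c', -, -, hc'⟩ := dia_form h'
  apply LinearEquiv.ext
  intro x
  funext k
  change y (y' x) k = y' (y x) k
  rw [hc, hc', hc', hc]
  ring

theorem dia_mul {y y' : (ι → F) ≃ₗ[F] (ι → F)} (h : Dia y) (h' : Dia y') : Dia (y * y') := by
  intro i
  change y (y' (e i)) = _ ∨ y (y' (e i)) = _
  rcases h' i with h1 | h1 <;> rcases h i with h2 | h2 <;> rw [h1] <;> simp [h2]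

theorem dia_inv {y : (ι → F) ≃ₗ[F] (ι → F)} (h : Dia y) : Dia y⁻¹ := by
  intro i
  have h0 : ∀ x, y⁻¹ (y x) = x := fun x => by
    change (y⁻¹ * y) x = x
    rw [inv_mul_cancel]; rfl
  rcases h i with h1 | h1
  · left
    conv_lhs => rw [← h1]
    exact h0 _
  · right
    have h2 := h0 (e i)
    rw [h1, map_neg] at h2
    rw [← neg_neg (y⁻¹ (e i)), h2]

theorem dia_conj {s y : (ι → F) ≃ₗ[F] (ι → F)} {π : Equiv.Perm ι} (hs : Pr s π) (h : Dia y) : Dia (s * y * s⁻¹) := by
  obtain ⟨c, hc1, hc2, hc⟩ := dia_form h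
  have h0 : ∀ x, s⁻¹ (s x) = x := fun x => by
    change (s⁻¹ * s) x = x
    rw [inv_mul_cancel]; rfl
  intro i
  obtain ⟨j, rfl⟩ := π.surjective i
  have key : (s * y * s⁻¹) (e (π j)) = c j • e (π j) := by
    change s (y (s⁻¹ (e (π j)))) = _
    rcases hs j with h1 | h1
    · rw [← h1, h0, hc2, map_smul]
    · have h2 : (e (π j) : ι → F) = - s (e j) := by rw [h1, neg_neg]
      rw [h2, map_neg, h0, map_neg, hc2, map_neg, map_smul, smul_neg]
  rcases hc1 j with h1 | h1
  · left; rw [key, h1, one_smul]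
  · right; rw [key, h1, neg_one_smul]

theorem sup_mul {x y : (ι → F) ≃ₗ[F] (ι → F)} {R : Finset ι} (hx : Sup x R) (hy : Sup y R) : Sup (x * y) R := by
  intro j hj
  change x (y (e j)) = e j
  rw [hy j hj, hx j hj]

theorem sup_inv {x : (ι → F) ≃ₗ[F] (ι → F)} {R : Finset ι} (hx : Sup x R) : Sup x⁻¹ R := by
  intro j hj
  conv_lhs => rw [← hx j hj]
  change (x⁻¹ * x) (e j) = e j
  rw [inv_mul_cancel]; rfl

theorem sup_sg {R : Finset ι} {a b : ι} (ha : a ∈ R) (hb : b ∈ R) : Sup (sg a b : (ι → F) ≃ₗ[F] (ι → F)) R := by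
  intro j hj
  rw [sg_e, if_neg]
  rintro (rfl | rfl)
  · exact hj ha
  · exact hj hb

theorem sup_pm {R : Finset ι} {τ : Equiv.Perm ι} (h : ∀ j, j ∉ R → τ j = j) : Sup (pm τ : (ι → F) ≃ₗ[F] (ι → F)) R := by
  intro j hj
  rw [pm_e, h j hj]

theorem dia_sg (a b : ι) : Dia (sg a b : (ι → F) ≃ₗ[F] (ι → F)) := by
  intro i
  rw [sg_e]
  split_ifs
  · right; rfl
  · left; rfl

theorem pr_pm (τ : Equiv.Perm ι) : Pr (pm τ : (ι → F) ≃ₗ[F] (ι → F)) τ := fun i => Or.inl (pm_e τ i)

/-- a 3-cycle `u → v → w → u` -/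
def cyc (u v w : ι) : Equiv.Perm ι := Equiv.swap u v * Equiv.swap v w

theorem cyc_sign {u v w : ι} (h1 : u ≠ v) (h2 : v ≠ w) : Equiv.Perm.sign (cyc u v w) = 1 := by
  rw [cyc, Equiv.Perm.sign_mul, Equiv.Perm.sign_swap h1, Equiv.Perm.sign_swap h2]
  decide

theorem cyc_1 {u v w : ι} (h1 : u ≠ v) (h3 : u ≠ w) : cyc u v w u = v := by
  rw [cyc, Equiv.Perm.mul_apply, Equiv.swap_apply_of_ne_of_ne h1 h3, Equiv.swap_apply_left]

theorem cyc_2 {u v w : ι} (h3 : u ≠ w) (h2 : v ≠ w) : cyc u v w v = w := by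
  rw [cyc, Equiv.Perm.mul_apply, Equiv.swap_apply_left, Equiv.swap_apply_of_ne_of_ne (Ne.symm h3) (Ne.symm h2)]

theorem cyc_3 (u v w : ι) : cyc u v w w = u := by
  rw [cyc, Equiv.Perm.mul_apply, Equiv.swap_apply_right, Equiv.swap_apply_right]

theorem cyc_4 {u v w x : ι} (h1 : x ≠ u) (h2 : x ≠ v) (h3 : x ≠ w) : cyc u v w x = x := by
  rw [cyc, Equiv.Perm.mul_apply, Equiv.swap_apply_of_ne_of_ne h2 h3, Equiv.swap_apply_of_ne_of_ne h1 h2]

theorem cyc_fix {u v w : ι} {R : Finset ι} (hu : u ∈ R) (hv : v ∈ R) (hw : w ∈ R) (j : ι) (hj : j ∉ R) :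
    cyc u v w j = j := by
  apply cyc_4
  · rintro rfl; exact hj hu
  · rintro rfl; exact hj hv
  · rintro rfl; exact hj hw

/-- finitely many monomial elements -/
theorem finite_mon (R : Finset ι) (hm : ∀ x ∈ K, Sup x R → Mon x) :
    Finite {x : (ι → F) ≃ₗ[F] (ι → F) // x ∈ K ∧ Sup x R} := by
  classical
  let T : Set (ι → F) := Set.range (fun p : ι × Bool => if p.2 then (e p.1 : ι → F) else - e p.1)
  haveI : Finite T := Set.finite_range _
  have hT : ∀ x : {x : (ι → F) ≃ₗ[F] (ι → F) // x ∈ K ∧ Sup x R}, ∀ i, x.1 (e i) ∈ T := by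
    intro x i
    obtain ⟨j, hj | hj⟩ := hm x.1 x.2.1 x.2.2 i
    · exact ⟨(j, true), by simp [hj]⟩
    · exact ⟨(j, false), by simp [hj]⟩
  apply Finite.of_injective (fun x : {x : (ι → F) ≃ₗ[F] (ι → F) // x ∈ K ∧ Sup x R} =>
    (fun i => (⟨x.1 (e i), hT x i⟩ : T)))
  intro x y hxy
  apply Subtype.ext
  apply ext_e
  intro i
  exact congrArg Subtype.val (congrFun hxy i)

/-- the conjugates of the diagonal elements -/
def AA (K : Subgroup ((ι → F) ≃ₗ[F] (ι → F))) (R : Finset ι) (g x : (ι → F) ≃ₗ[F] (ι → F)) : Prop :=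
  ∃ y ∈ K, Sup y R ∧ Dia y ∧ x = g * y * g⁻¹

theorem AA.mul {R : Finset ι} {g x x' : (ι → F) ≃ₗ[F] (ι → F)} (h : AA K R g x) (h' : AA K R g x') : AA K R g (x * x') := by
  obtain ⟨y, h1, h2, h3, rfl⟩ := h
  obtain ⟨y', h1', h2', h3', rfl⟩ := h'
  exact ⟨y * y', mul_mem h1 h1', sup_mul h2 h2', dia_mul h3 h3', by group⟩

theorem AA.inv {R : Finset ι} {g x : (ι → F) ≃ₗ[F] (ι → F)} (h : AA K R g x) : AA K R g x⁻¹ := by
  obtain ⟨y, h1, h2, h3, rfl⟩ := h
  exact ⟨y⁻¹, inv_mem h1, sup_inv h2, dia_inv h3, by group⟩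

theorem AA.comm {R : Finset ι} {g x x' : (ι → F) ≃ₗ[F] (ι → F)} (h : AA K R g x) (h' : AA K R g x') : x * x' = x' * x := by
  obtain ⟨y, h1, h2, h3, rfl⟩ := h
  obtain ⟨y', h1', h2', h3', rfl⟩ := h'
  calc g * y * g⁻¹ * (g * y' * g⁻¹) = g * (y * y') * g⁻¹ := by group
    _ = g * (y' * y) * g⁻¹ := by rw [dia_comm h3 h3']
    _ = _ := by group

/-- the conjugates of diagonal elements are diagonal -/
theorem dia_of (D : Dat K) (h2 : (2:F) ≠ 0) {g : (ι → F) ≃ₗ[F] (ι → F)} (hg : g ∈ K) {R : Finset ι}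
    (hR : R.card = 3 ∨ 5 ≤ R.card) (hm : ∀ x ∈ K, Sup x R → Mon x) (hn : ∀ x ∈ K, Sup x R → Sup (g * x * g⁻¹) R)
    {x : (ι → F) ≃ₗ[F] (ι → F)} (hx : AA K R g x) : Dia x := by
  classical
  -- surjectivity of conjugation
  have hsurj : ∀ s ∈ K, Sup s R → ∃ s' ∈ K, Sup s' R ∧ s = g * s' * g⁻¹ := by
    haveI := finite_mon (K := K) R hm
    let φ : {x : (ι → F) ≃ₗ[F] (ι → F) // x ∈ K ∧ Sup x R} → {x : (ι → F) ≃ₗ[F] (ι → F) // x ∈ K ∧ Sup x R} :=
      fun x => ⟨g * x.1 * g⁻¹, mul_mem (mul_mem hg x.2.1) (inv_mem hg), hn x.1 x.2.1 x.2.2⟩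
    have hφ : Function.Injective φ := by
      intro x y hxy
      have h1 : g * x.1 * g⁻¹ = g * y.1 * g⁻¹ := congrArg Subtype.val hxy
      exact Subtype.ext (mul_left_cancel (mul_right_cancel h1))
    have hφs := Finite.injective_iff_surjective.1 hφ
    intro s hs hs'
    obtain ⟨t, ht⟩ := hφs ⟨s, hs, hs'⟩
    exact ⟨t.1, t.2.1, t.2.2, (congrArg Subtype.val ht).symm⟩
  have hnorm : ∀ s ∈ K, Sup s R → ∀ x, AA K R g x → AA K R g (s * x * s⁻¹) := by
    rintro s hs hs' x ⟨y, h1, h3, h4, rfl⟩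
    obtain ⟨t, t1, t2, rfl⟩ := hsurj s hs hs'
    obtain ⟨π, hπ⟩ := exists_pr (hm t t1 t2)
    exact ⟨t * y * t⁻¹, mul_mem (mul_mem t1 h1) (inv_mem t1), sup_mul (sup_mul t2 h3) (sup_inv t2), dia_conj hπ h4,
      by group⟩
  have hcyc : ∀ u v w a b, u ∈ R → v ∈ R → w ∈ R → u ≠ v → v ≠ w → AA K R g (sg a b) →
      AA K R g (sg (cyc u v w a) (cyc u v w b)) := by
    intro u v w a b hu hv hw huv hvw h
    have h1 := hnorm (pm (cyc u v w)) (D.pm _ (cyc_sign huv hvw)) (sup_pm (cyc_fix hu hv hw)) _ h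
    rwa [(pr_pm (cyc u v w)).conj a b] at h1
  obtain ⟨y, hy1, hy2, hy3, hxy⟩ := id hx
  have hxK : x ∈ K := by rw [hxy]; exact mul_mem (mul_mem hg hy1) (inv_mem hg)
  have hxs : Sup x R := by rw [hxy]; exact hn y hy1 hy2
  obtain ⟨π, hπ⟩ := exists_pr (hm x hxK hxs)
  by_contra hnd
  have hex : ∃ a, π a ≠ a := by
    by_contra hno
    push Not at hno
    apply hnd
    intro i
    have := hπ i
    rwa [hno i] at this
  obtain ⟨a, ha⟩ := hex
  have haR : a ∈ R := by
    by_contra h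
    exact ha (hπ.fix hxs h)
  have hpaR : π a ∈ R := hπ.mem hxs haR
  obtain ⟨c, hcR, hca, hcp⟩ : ∃ c ∈ R, c ≠ a ∧ c ≠ π a := by
    by_contra hno
    push Not at hno
    have h3 : R ⊆ {a, π a} := by
      intro c hc
      rw [Finset.mem_insert, Finset.mem_singleton]
      by_cases h : c = a
      · exact Or.inl h
      · exact Or.inr (hno c hc h)
    have h4 := Finset.card_le_card h3
    have h5 := Finset.card_le_two (a := a) (b := π a)
    omega
  have hpcR : π c ∈ R := hπ.mem hxs hcR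
  have hpac : π a ≠ π c := fun h => hca (π.injective h).symm
  have hz : AA K R g (sg (π a) (π c) * sg a c) := by
    have h1 := hx.mul (hnorm (sg a c) (D.sg a c (Ne.symm hca)) (sup_sg haR hcR) _ hx.inv)
    have h3 : x * (sg a c * x⁻¹ * (sg a c)⁻¹) = sg (π a) (π c) * sg a c := by
      rw [← hπ.conj a c, sg_inv]; group
    rwa [h3] at h1
  -- a weight two element
  have hw2 : ∃ u ∈ R, ∃ v ∈ R, u ≠ v ∧ AA K R g (sg u v) := by
    by_cases h1 : π c = c
    · refine ⟨π a, hpaR, a, haR, ha, ?_⟩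
      rw [h1, sg_comm (π a) c, sg_comm a c, sg_mul hcp hca ha] at hz
      exact hz
    · by_cases h3 : π c = a
      · refine ⟨π a, hpaR, c, hcR, Ne.symm hcp, ?_⟩
        rw [h3, sg_comm (π a) a, sg_mul (Ne.symm ha) (Ne.symm hca) (Ne.symm hcp)] at hz
        exact hz
      · obtain ⟨f, hfR, f1, f2, f3, f4⟩ : ∃ f ∈ R, f ≠ a ∧ f ≠ c ∧ f ≠ π a ∧ f ≠ π c := by
          have h5 : ({a, c, π a, π c} : Finset ι).card = 4 := by
            rw [Finset.card_insert_of_notMem, Finset.card_insert_of_notMem, Finset.card_insert_of_notMem,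
              Finset.card_singleton]
            · simp [hpac]
            · simp [hcp, Ne.symm h1]
            · simp [Ne.symm hca, Ne.symm ha, Ne.symm h3]
          have h6 : ({a, c, π a, π c} : Finset ι) ⊆ R := by
            intro t ht
            simp only [Finset.mem_insert, Finset.mem_singleton] at ht
            rcases ht with rfl | rfl | rfl | rfl <;> assumption
          have h7 := Finset.card_le_card h6
          have h8 : ∃ f ∈ R, f ∉ ({a, c, π a, π c} : Finset ι) := by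
            by_contra hno
            push Not at hno
            have h9 := Finset.card_le_card (show R ⊆ _ from hno)
            omega
          obtain ⟨f, hf, hf'⟩ := h8
          simp only [Finset.mem_insert, Finset.mem_singleton, not_or] at hf'
          exact ⟨f, hf, hf'.1, hf'.2.1, hf'.2.2.1, hf'.2.2.2⟩
        refine ⟨a, haR, f, hfR, Ne.symm f1, ?_⟩
        have hac : a ≠ c := Ne.symm hca
        -- the cycle a → c → f → a
        have h5 := hnorm (pm (cyc a c f)) (D.pm _ (cyc_sign hac (Ne.symm f2))) (sup_pm (cyc_fix haR hcR hfR)) _ hz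
        have h6 : pm (cyc a c f) * (sg (π a) (π c) * sg a c) * (pm (cyc a c f))⁻¹ =
            (sg (π a) (π c) * sg c f : (ι → F) ≃ₗ[F] (ι → F)) := by
          have q1 := (pr_pm (F := F) (cyc a c f)).conj (π a) (π c)
          have q2 := (pr_pm (F := F) (cyc a c f)).conj a c
          rw [cyc_4 ha (Ne.symm hcp) (Ne.symm f3), cyc_4 h3 h1 (Ne.symm f4)] at q1
          rw [cyc_1 hac (Ne.symm f1), cyc_2 (Ne.symm f1) (Ne.symm f2)] at q2
          calc pm (cyc a c f) * (sg (π a) (π c) * sg a c) * (pm (cyc a c f))⁻¹ =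
              (pm (cyc a c f) * sg (π a) (π c) * (pm (cyc a c f))⁻¹) * (pm (cyc a c f) * sg a c * (pm (cyc a c f))⁻¹) := by
                group
            _ = _ := by rw [q1, q2]
        rw [h6] at h5
        have h7 := hz.mul h5
        have h8 : sg (π a) (π c) * sg a c * (sg (π a) (π c) * sg c f) = (sg a f : (ι → F) ≃ₗ[F] (ι → F)) := by
          calc sg (π a) (π c) * sg a c * (sg (π a) (π c) * sg c f) =
              sg (π a) (π c) * (sg a c * sg (π a) (π c)) * sg c f := by group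
            _ = sg (π a) (π c) * (sg (π a) (π c) * sg a c) * sg c f := by rw [sg_sg a c]
            _ = (sg (π a) (π c) * (sg (π a) (π c))) * (sg c a * sg c f) := by rw [sg_comm a c]; group
            _ = sg a f := by
              rw [sg_mul hca (Ne.symm f2) (Ne.symm f1)]
              conv_lhs => rw [← sg_inv (π a) (π c)]
              rw [sg_inv]
              have : (sg (π a) (π c) * sg (π a) (π c) : (ι → F) ≃ₗ[F] (ι → F)) = 1 := by
                conv_lhs => rw [← sg_inv (π a) (π c)]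
                rw [sg_inv]
                have h9 := sg_inv (F := F) (π a) (π c)
                rw [inv_eq_iff_mul_eq_one] at h9
                exact h9
              rw [this, one_mul]
        rwa [h8] at h7
  obtain ⟨u, huR, v, hvR, huv, hA⟩ := hw2
  have hu : ∀ w ∈ R, w ≠ u → AA K R g (sg u w) := by
    intro w hw hwu
    by_cases hwv : w = v
    · rw [hwv]; exact hA
    · -- u → w → v → u
      have h1 := hcyc u w v u v huR hw hvR (Ne.symm hwu) hwv hA
      rw [cyc_1 (Ne.symm hwu) huv, cyc_3] at h1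
      rw [sg_comm]; exact h1
  have hac : AA K R g (sg a c) := by
    by_cases h1 : a = u
    · rw [h1]; exact hu c hcR (h1 ▸ hca)
    · by_cases h3 : c = u
      · rw [h3, sg_comm]; exact hu a haR h1
      · have h4 := (hu a haR h1).mul (hu c hcR h3)
        rwa [sg_mul (Ne.symm h1) (Ne.symm h3) (Ne.symm hca)] at h4
  have h1 := hx.comm hac
  have h3 := hπ.conj a c
  rw [h1, mul_inv_cancel_right] at h3
  have h4 := congrFun (congrArg (fun t : (ι → F) ≃ₗ[F] (ι → F) => t (e (π a))) h3) (π a)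
  change sg a c (e (π a)) (π a) = sg (π a) (π c) (e (π a)) (π a) at h4
  rw [sg_e, sg_e, if_neg (by rintro (h | h); exacts [ha h, hcp h.symm]), if_pos (Or.inl rfl), Pi.neg_apply, e_self] at h4
  apply h2
  linear_combination h4

theorem norm_lem (D : Dat K) (h2 : (2:F) ≠ 0) {g : (ι → F) ≃ₗ[F] (ι → F)} (hg : g ∈ K) {R : Finset ι}
    (hR : R.card = 3 ∨ 5 ≤ R.card) (hm : ∀ x ∈ K, Sup x R → Mon x) (hn : ∀ x ∈ K, Sup x R → Sup (g * x * g⁻¹) R) :
    ∀ j ∈ R, ∃ k ∈ R, g (e j) = e k ∨ g (e j) = - e k := by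
  classical
  intro j hj
  have hgi : ∀ x, g (g⁻¹ x) = x := fun x => by
    change (g * g⁻¹) x = x
    rw [mul_inv_cancel]; rfl
  have hig : ∀ x, g⁻¹ (g x) = x := fun x => by
    change (g⁻¹ * g) x = x
    rw [inv_mul_cancel]; rfl
  obtain ⟨l, hl, m, hm', hjl, hjm, hlm⟩ : ∃ l ∈ R, ∃ m ∈ R, j ≠ l ∧ j ≠ m ∧ l ≠ m := by
    have h1 : 3 ≤ R.card := by omega
    have h3 : 1 < (R.erase j).card := by
      rw [Finset.card_erase_of_mem hj]; omega
    obtain ⟨l, hl, m, hm', hlm⟩ := Finset.one_lt_card.1 h3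
    exact ⟨l, Finset.mem_of_mem_erase hl, m, Finset.mem_of_mem_erase hm', Ne.symm (Finset.ne_of_mem_erase hl),
      Ne.symm (Finset.ne_of_mem_erase hm'), hlm⟩
  have hd : ∀ p ∈ R, j ≠ p → Dia (g * sg j p * g⁻¹) := fun p hp hjp =>
    dia_of D h2 hg hR hm hn ⟨sg j p, D.sg j p hjp, sup_sg hj hp, dia_sg j p, rfl⟩
  obtain ⟨c1, -, c1e, c1v⟩ := dia_form (hd l hl hjl)
  obtain ⟨c2, -, c2e, c2v⟩ := dia_form (hd m hm' hjm)
  -- a nonzero coordinate
  have hne : g (e j) ≠ 0 := by
    intro h0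
    have h1 : (e j : ι → F) = 0 := by
      rw [← hig (e j), h0, map_zero]
    have h3 := e_self (F := F) j
    rw [h1] at h3
    exact zero_ne_one h3
  obtain ⟨i, hi⟩ := Function.ne_iff.1 hne
  have hi' : g (e j) i ≠ 0 := hi
  have hc : ∀ p, j ≠ p → ∀ c : ι → F, (∀ (v : ι → F) (i : ι), (g * sg j p * g⁻¹ : (ι → F) ≃ₗ[F] (ι → F)) v i = c i * v i) → c i = -1 := by
    intro p hp c hcv
    have h1 := hcv (g (e j)) i
    change g (sg j p (g⁻¹ (g (e j)))) i = _ at h1
    rw [hig, sg_e, if_pos (Or.inl rfl), map_neg, Pi.neg_apply] at h1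
    have h3 : (c i + 1) * g (e j) i = 0 := by linear_combination -h1
    rcases mul_eq_zero.1 h3 with h4 | h4
    · linear_combination h4
    · exact absurd h4 hi'
  have hc1 := hc l hjl c1 c1v
  have hc2 := hc m hjm c2 c2v
  set w : ι → F := g⁻¹ (e i) with hw
  have hwp : ∀ p, ∀ c : ι → F, (∀ i, (g * sg j p * g⁻¹ : (ι → F) ≃ₗ[F] (ι → F)) (e i) = c i • e i) → c i = -1 → sg j p w = - w := by
    intro p c hce hci
    have h1 := hce i
    change g (sg j p (g⁻¹ (e i))) = _ at h1
    rw [hci, neg_one_smul] at h1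
    rw [← hig (sg j p w), hw, h1, map_neg]
  have w1 := hwp l c1 c1e hc1
  have w2 := hwp m c2 c2e hc2
  have h2' : ∀ a : F, a = - a → a = 0 := by
    intro a ha
    have : 2 * a = 0 := by linear_combination ha
    exact (mul_eq_zero.1 this).resolve_left h2
  have hwk : ∀ k, k ≠ j → w k = 0 := by
    intro k hk
    have q1 := congrFun w1 k
    have q2 := congrFun w2 k
    rw [sg_apply, Pi.neg_apply] at q1 q2
    by_cases hkl : k = l
    · rw [if_neg (by rintro (h | h); exacts [hk h, hlm (hkl.symm.trans h)])] at q2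
      exact h2' _ q2
    · rw [if_neg (by rintro (h | h); exacts [hk h, hkl h])] at q1
      exact h2' _ q1
  have hwj : w = w j • e j := by
    funext k
    by_cases hk : k = j
    · subst hk; simp [e_self]
    · rw [hwk k hk, Pi.smul_apply, e_ne hk, smul_zero]
  have hge : (e i : ι → F) = w j • g (e j) := by
    rw [← map_smul, ← hwj, hw, hgi]
  -- norms
  have hnorm : w j * w j = 1 := by
    have h1 := D.iso g hg (e j) (e j)
    have h3 : ∀ a : ι, (e a : ι → F) ⬝ᵥ e a = 1 := by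
      intro a
      simp [e]
    rw [h3] at h1
    have h4 := h3 i
    rw [hge, smul_dotProduct, dotProduct_smul, h1] at h4
    simpa using h4
  refine ⟨i, ?_, ?_⟩
  · by_contra hiR
    have h1 := hn (sg j l) (D.sg j l hjl) (sup_sg hj hl) i hiR
    rw [c1e, hc1, neg_one_smul] at h1
    have h3 := congrFun h1 i
    rw [Pi.neg_apply, e_self] at h3
    apply h2
    linear_combination -h3
  · have h1 : (w j - 1) * (w j + 1) = 0 := by linear_combination hnorm
    rcases mul_eq_zero.1 h1 with h3 | h3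
    · left
      have h4 : w j = 1 := by linear_combination h3
      rw [hge, h4, one_smul]
    · right
      have h4 : w j = -1 := by linear_combination h3
      rw [hge, h4, neg_one_smul, neg_neg]

end H83.FrNorm
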